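import Cfsg.Agent.Lib.Helper21.Uni.Defs
import Cfsg.Agent.Lib.Helper44.OmegaUnified
import Cfsg.Prelude.Def_GeometricClasses

set_option autoImplicit false

namespace Cfsg.Agent.Lib.Helper11.Uni

open Matrix Module Cfsg Cfsg.Geo Cfsg.Agent.Lib.Helper67.Elus Cfsg.Agent.Lib.Helper21.Uni

variable {F : Type*} [Field F] {V : Type*} [AddCommGroup V] [Module F V]

variable {ι : Type} [Fintype ι] [DecidableEq ι]

/-- B1 -/
theorem mem_omegaGL_of_pow [Fintype F] (h2 : (2 : F) ≠ 0) (Q : QuadraticForm F (ι → F))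
    (hQ : (QuadraticMap.polarBilin Q).Nondegenerate) {p : ℕ} (hp : Odd p) (x : GL ι F)
    (hx : x ∈ Cfsg.isometryGroup F ⇑Q) (hxp : x ^ p = 1) : x ∈ omegaGL ⇑Q := by
  have hcard : Fintype.card F ≠ 2 := by
    intro h
    apply h2
    have := Nat.cast_card_eq_zero F
    rw [h] at this
    exact_mod_cast this
  obtain ⟨k, hk⟩ := hp
  have hy : x ^ (k + 1) ∈ Cfsg.isometryGroup F ⇑Q := Subgroup.pow_mem _ hx _
  have h := Cfsg.Agent.Lib.Helper44.mul_self_mem_Omega Q hQ (Or.inl hcard) ⟨x ^ (k + 1), hy⟩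
  unfold omegaGL
  rw [Subgroup.mem_map]
  refine ⟨_, h, ?_⟩
  change x ^ (k + 1) * x ^ (k + 1) = x
  rw [← pow_add, show k + 1 + (k + 1) = p + 1 by omega, pow_succ, hxp, one_mul]

end Cfsg.Agent.Lib.Helper11.Uni
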