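import Cfsg.Agent.Lib.Helper21.Uni.Defs
import Cfsg.Agent.Lib.Helper67.Elus.Defs

set_option autoImplicit false

namespace Cfsg.Agent.Lib.Helper11.Uni

open Matrix Module Cfsg.Agent.Lib.Helper67.Elus Cfsg.Agent.Lib.Helper21.Uni

variable {F : Type*} [Field F] {V : Type*} [AddCommGroup V] [Module F V]

/-- S1 -/
theorem inv_orthogonal (B : LinearMap.BilinForm F V) {N : Module.End F V} (hs : Skew B N)
    {W : Submodule F V} (hW : Inv N W) : Inv N (B.orthogonal W) := by
  intro v hv
  rw [LinearMap.BilinForm.mem_orthogonal_iff] at hv ⊢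
  intro w hw
  have h1 := hs w v
  have h2 : B (N w) v = 0 := hv (N w) (hW w hw)
  change B w (N v) = 0
  rw [h2] at h1
  exact neg_eq_zero.1 h1.symm

end Cfsg.Agent.Lib.Helper11.Uni
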