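import Cfsg.Agent.Lib.Helper21.Uni.Defs
import Cfsg.Agent.Lib.Helper67.Elus.J2
import Cfsg.Agent.Lib.Helper67.Elus.J4

set_option autoImplicit false

namespace Cfsg.Agent.Lib.Helper11.Uni

open Matrix Module Cfsg.Agent.Lib.Helper67.Elus Cfsg.Agent.Lib.Helper21.Uni

variable {F : Type*} [Field F] {V : Type*} [AddCommGroup V] [Module F V]

/-- S2 -/
theorem jtype_unique {N : Module.End F V} {μ μ' : Multiset ℕ} (h : JType N μ) (h' : JType N μ')
    (hp : ∀ e ∈ μ, 0 < e) (hp' : ∀ e ∈ μ', 0 < e) : μ = μ' :=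
  multiset_eq_of_min_sums hp hp' (fun t => by rw [← jtype_ker h t, ← jtype_ker h' t])

end Cfsg.Agent.Lib.Helper11.Uni
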