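import Cfsg.Agent.Lib.Helper21.Uni.Defs

set_option autoImplicit false

namespace Cfsg.Agent.Lib.Helper11.Uni

open Cfsg.Agent.Lib.Helper21.Uni

/-- S4 -/
theorem count_add_min_sums (ν : Multiset ℕ) (e : ℕ) :
    ν.count (e + 1) + (ν.map (fun a => min a e)).sum + (ν.map (fun a => min a (e + 2))).sum =
      2 * (ν.map (fun a => min a (e + 1))).sum := by
  induction ν using Multiset.induction_on with
  | empty => simp
  | cons a s ih =>
    rw [Multiset.count_cons, Multiset.map_cons, Multiset.map_cons, Multiset.map_cons,
      Multiset.sum_cons, Multiset.sum_cons, Multiset.sum_cons]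
    split_ifs with h <;> omega

end Cfsg.Agent.Lib.Helper11.Uni
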