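import Cfsg.Agent.Lib.Helper21.Uni.Defs
import Cfsg.Agent.Lib.Helper67.Elus.J2
import Cfsg.Agent.Lib.Helper96.Uni.S3
import Cfsg.Agent.Lib.Helper11.Uni.S4

set_option autoImplicit false

namespace Cfsg.Agent.Lib.Helper11.Uni

open Matrix Module Cfsg.Agent.Lib.Helper67.Elus Cfsg.Agent.Lib.Helper21.Uni

variable {F : Type*} [Field F] {V : Type*} [AddCommGroup V] [Module F V]

theorem skew_pow_h11 (B : LinearMap.BilinForm F V) {N : Module.End F V} (hs : Skew B N) (t : ℕ)
    (u v : V) : B ((N ^ t) u) v = (-1) ^ t * B u ((N ^ t) v) := by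
  induction t generalizing u v with
  | zero => simp
  | succ t ih =>
    have e1 : (N ^ (t + 1)) u = (N ^ t) (N u) := by rw [pow_succ, Module.End.mul_apply]
    have e2 : (N ^ (t + 1)) v = N ((N ^ t) v) := by rw [pow_succ', Module.End.mul_apply]
    rw [e1, e2, ih, hs, pow_succ]
    ring

theorem self_zero_h11 (h2 : (2 : F) ≠ 0) (B : LinearMap.BilinForm F V) (hS : B.IsSymm)
    {N : Module.End F V} (hs : Skew B N) (t : ℕ) (ht : Odd t) (u : V) : B ((N ^ t) u) u = 0 := by
  have h1 := skew_pow_h11 B hs t u u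
  rw [ht.neg_one_pow, hS.eq u ((N ^ t) u)] at h1
  have h3 : (2 : F) * B ((N ^ t) u) u = 0 := by linear_combination h1
  rcases mul_eq_zero.1 h3 with h | h
  · exact absurd h h2
  · exact h

/-- S5 -/
theorem adm_of_skew [FiniteDimensional F V] (h2 : (2 : F) ≠ 0) (B : LinearMap.BilinForm F V)
    (hS : B.IsSymm) (hB : B.Nondegenerate) {N : Module.End F V} (hs : Skew B N) {ν : Multiset ℕ}
    (hν : JType N ν) (hp : ∀ e ∈ ν, 0 < e) : Adm ν := by
  intro e he
  rcases Nat.eq_zero_or_pos e with rfl | hpos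
  · have : ν.count 0 = 0 := Multiset.count_eq_zero.2 (fun h => absurd (hp 0 h) (lt_irrefl 0))
    rw [this]; exact Even.zero
  obtain ⟨k, rfl⟩ : ∃ k, e = k + 1 := ⟨e - 1, by omega⟩
  have hk : Odd k := by
    rcases Nat.even_or_odd k with h | h
    · exact absurd he (Nat.not_even_iff_odd.2 h.add_one)
    · exact h
  have hk2 : Odd (k + 2) := by
    obtain ⟨j, hj⟩ := hk
    exact ⟨j + 1, by omega⟩
  have h4 := count_add_min_sums ν k
  rw [← jtype_ker hν k, ← jtype_ker hν (k + 2), ← jtype_ker hν (k + 1)] at h4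
  have r1 := Cfsg.Agent.Lib.Helper96.Uni.even_finrank_range B hB (N ^ k)
    (self_zero_h11 h2 B hS hs k hk)
  have r2 := Cfsg.Agent.Lib.Helper96.Uni.even_finrank_range B hB (N ^ (k + 2))
    (self_zero_h11 h2 B hS hs (k + 2) hk2)
  have n1 := LinearMap.finrank_range_add_finrank_ker (N ^ k)
  have n2 := LinearMap.finrank_range_add_finrank_ker (N ^ (k + 2))
  obtain ⟨a, ha⟩ := r1
  obtain ⟨b, hb⟩ := r2
  rw [Nat.even_iff]
  omega

end Cfsg.Agent.Lib.Helper11.Uni
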