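import Cfsg.Agent.Lib.Helper21.Uni.Defs
import Cfsg.Agent.Lib.Helper67.Elus.J1
import Cfsg.Agent.Lib.Helper67.Elus.J1a
import Cfsg.Agent.Lib.Helper67.Elus.J1c
import Cfsg.Agent.Lib.Helper11.Uni.S1
import Cfsg.Agent.Lib.Helper11.Uni.S2
import Cfsg.Agent.Lib.Helper11.Uni.S5

set_option autoImplicit false

namespace Cfsg.Agent.Lib.Helper11.Uni

open Matrix Module Cfsg.Agent.Lib.Helper67.Elus Cfsg.Agent.Lib.Helper21.Uni

variable {F : Type*} [Field F] {V : Type*} [AddCommGroup V] [Module F V]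

theorem isNilpotent_restrict_h11 {N : Module.End F V} (hN : IsNilpotent N) {W : Submodule F V}
    (hW : Inv N W) : IsNilpotent (N.restrict hW) := by
  obtain ⟨n, hn⟩ := hN
  refine ⟨n, ?_⟩
  ext w
  have key : ∀ (k : ℕ) (w : W), (((N.restrict hW) ^ k) w : V) = (N ^ k) (w : V) := by
    intro k
    induction k with
    | zero => intro w; simp
    | succ k ih =>
      intro w
      rw [pow_succ, pow_succ, Module.End.mul_apply, Module.End.mul_apply, ih]
      rfl
  rw [key, hn]
  simp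

/-- S6 -/
theorem sub_partition [FiniteDimensional F V] (h2 : (2 : F) ≠ 0) (B : LinearMap.BilinForm F V)
    (hS : B.IsSymm) {N : Module.End F V} (hs : Skew B N) (hN : IsNilpotent N) {μ : Multiset ℕ}
    (hμ : JType N μ) (hp : ∀ e ∈ μ, 0 < e) (W : Submodule F V) (hW : Inv N W)
    (hnd : (B.restrict W).Nondegenerate) :
    ∃ ν : Multiset ℕ, ν ≤ μ ∧ ν.sum = finrank F W ∧ Adm ν ∧ (∀ e ∈ ν, 0 < e) ∧
      JType (N.restrict hW) ν := by
  have hc : IsCompl W (B.orthogonal W) :=
    LinearMap.BilinForm.isCompl_orthogonal_of_restrict_nondegenerate hS.isRefl hnd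
  have hW' : Inv N (B.orthogonal W) := inv_orthogonal B hs hW
  obtain ⟨ν, hνp, hν⟩ := exists_jtype (N.restrict hW) (isNilpotent_restrict_h11 hN hW)
  obtain ⟨ν', hνp', hν'⟩ := exists_jtype (N.restrict hW') (isNilpotent_restrict_h11 hN hW')
  have hsum : JType N (ν + ν') := jtype_of_isCompl hW hW' hc hν hν'
  have hμeq : μ = ν + ν' := by
    apply jtype_unique hμ hsum hp
    intro e he
    rcases Multiset.mem_add.1 he with h | h
    · exact hνp e h
    · exact hνp' e h
  refine ⟨ν, ?_, jtype_sum hν, ?_, hνp, hν⟩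
  · rw [hμeq]; exact Multiset.le_add_right ν ν'
  · refine adm_of_skew h2 (B.restrict W) ?_ hnd (N := N.restrict hW) ?_ hν hνp
    · exact hS.restrict W
    · intro u v
      exact hs u v

end Cfsg.Agent.Lib.Helper11.Uni
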